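import Mathlib
import Cfsg.Agent.Lib.LocStruct.QuadPair
import Cfsg.Agent.Lib.Thompson.Replacement

/-! The index `|V : C_V(B)|`, absence of quadratic `2F`-offenders, and two counting lemmas. -/

set_option autoImplicit false
set_option linter.unusedSectionVars false
set_option linter.style.haveILetI false

namespace H57.QR

open Subgroup H69 Cfsg
open scoped commutatorElement Pointwise

variable {G : Type*} [Group G] {p : ℕ}

/-- `|V : C_V(B)|` -/
noncomputable def ix (V B : Subgroup G) : ℕ := (𝐂(B)).relIndex V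

theorem ri_ne [Finite G] (H K : Subgroup G) : H.relIndex K ≠ 0 := index_ne_zero_of_finite

theorem ix_pos [Finite G] (V B : Subgroup G) : 0 < ix V B := Nat.pos_of_ne_zero (ri_ne _ _)

theorem ix_eq_one {V B : Subgroup G} : ix V B = 1 ↔ V ≤ 𝐂(B) := relIndex_eq_one

theorem ix_mono_left [Finite G] {V W : Subgroup G} (B : Subgroup G) (h : V ≤ W) : ix V B ≤ ix W B :=
  relIndex_le_of_le_right h (ri_ne _ _)

theorem ix_mono_right [Finite G] (V : Subgroup G) {B C : Subgroup G} (h : B ≤ C) :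
    ix V B ≤ ix V C :=
  relIndex_le_of_le_left (centralizer_anti h) (ri_ne _ _)

theorem ri_congr {A B K : Subgroup G} (h : K ⊓ A = K ⊓ B) : A.relIndex K = B.relIndex K := by
  rw [← inf_relIndex_left, h, inf_relIndex_left]

theorem ri_le_left [Finite G] {A B K : Subgroup G} (h : K ⊓ A ≤ B) :
    B.relIndex K ≤ A.relIndex K := by
  rw [← inf_relIndex_left K A]
  exact relIndex_le_of_le_left h (ri_ne _ _)

theorem ri_mul {A B : Subgroup G} (K : Subgroup G) (h : K ⊓ A ≤ B) :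
    A.relIndex K = A.relIndex (B ⊓ K) * B.relIndex K := by
  rw [relIndex_inf_mul_relIndex]
  exact ri_congr (le_antisymm (le_inf inf_le_left (le_inf inf_le_right h))
    (inf_le_inf_left _ inf_le_left))

theorem ix_map {G' : Type*} [Group G'] {f : G →* G'} (hf : Function.Injective f)
    (V B : Subgroup G) : ix (V.map f) (B.map f) = ix V B := by
  have : (𝐂(B.map f)).comap f = 𝐂(B) := by
    ext x
    rw [mem_comap, mem_centralizer_iff_commute, mem_centralizer_iff_commute]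
    exact ⟨fun h a ha => hf (by simpa using h _ ⟨a, ha, rfl⟩), by
      rintro h _ ⟨a, ha, rfl⟩
      rw [← map_mul, h a ha, map_mul]⟩
  rw [ix, ix, ← relIndex_comap, this]

theorem ix_cj (V B : Subgroup G) (g : G) : ix (V ^ᶜ g) (B ^ᶜ g) = ix V B :=
  ix_map (MulAut.conj g).injective V B

theorem ix_mul_card (V B : Subgroup G) :
    ix V B * Nat.card (V ⊓ 𝐂(B) : Subgroup G) = Nat.card V := by
  rw [ix, ← inf_relIndex_left, ← relIndex_bot_left, ← relIndex_bot_left, mul_comm]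
  exact relIndex_mul_relIndex _ _ _ bot_le inf_le_left

theorem ix_le_of_maxEA [Finite G] {P A V : Subgroup G} (hA : A ∈ H24.maxEA p P) (hVP : V ≤ P)
    (hV : IsElementaryAbelian p V) : ix V A ≤ ix A V := by
  have h := H24.IsBestOffenderOn.card_le (H24.isBestOffenderOn_of_mem_maxEA hA hVP hV)
  rw [← ix_mul_card V A, ← ix_mul_card A V] at h
  have h1 : 0 < Nat.card (A ⊓ 𝐂(V) : Subgroup G) * Nat.card (V ⊓ 𝐂(A) : Subgroup G) :=
    Nat.mul_pos Nat.card_pos Nat.card_pos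
  refine Nat.le_of_mul_le_mul_right (le_of_eq_of_le ?_ (h.trans_eq ?_)) h1 <;> ring

theorem ri_le_card {H K : Subgroup G} {β : Type*} [Finite β] (f : K → β)
    (hf : ∀ x y : K, f x = f y → (x : G)⁻¹ * y ∈ H) : H.relIndex K ≤ Nat.card β := by
  refine Nat.card_le_card_of_injective (fun q : K ⧸ H.subgroupOf K => f q.out) fun a b e => ?_
  rw [← a.out_eq, ← b.out_eq]
  exact QuotientGroup.eq.2 (hf _ _ e)

/-- `V` has no quadratic `2F`-offender among the `p`-subgroups normalizing it. -/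
def NQ (p : ℕ) (V : Subgroup G) : Prop :=
  ∀ B : Subgroup G, IsPGroup p B → B ≤ 𝐍(V) → ⁅⁅V, B⁆, B⁆ = ⊥ → ¬ B ≤ 𝐂(V) →
    ix B V ^ 2 < ix V B

theorem NQ.comap {G' : Type*} [Group G'] {f : G →* G'} (hf : Function.Injective f)
    {V : Subgroup G} (h : NQ p (V.map f)) : NQ p V := by
  intro B h1 h2 h3 h4
  rw [← ix_map hf, ← ix_map hf V]
  refine h _ (h1.map f) ((map_mono h2).trans (le_normalizer_map f)) ?_ fun e => h4 ?_
  · rw [← map_commutator, ← map_commutator, h3, Subgroup.map_bot]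
  · rwa [← ix_eq_one, ix_map hf, ix_eq_one] at e

theorem NQ.cj {V : Subgroup G} (h : NQ p V) (g : G) : NQ p (V ^ᶜ g) :=
  NQ.comap (f := (MulAut.conj g⁻¹).toMonoidHom) (MulAut.conj g⁻¹).injective (by
    rw [cj_cj_inv]; exact h)

theorem nq_of_sylow [Finite G] [Fact p.Prime] {T V : Subgroup G} (hT : IsSylowIn p T ⊤)
    (hn : T ≤ 𝐍(V))
    (h : ∀ B ≤ T, ⁅⁅V, B⁆, B⁆ = ⊥ → ¬ B ≤ 𝐂(V) → ix B V ^ 2 < ix V B) : NQ p V := by
  intro B h1 h2 h3 h4
  obtain ⟨g, hg, h5⟩ := (hT.mono hn le_top).exists_cj_le h1 h2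
  have e := cj_eq_of_mem_normalizer hg
  rw [← ix_cj B V g, ← ix_cj V B g, e]
  refine h _ h5 ?_ fun h6 => h4 ?_
  · rw [← e, ← cj_commutator, ← cj_commutator, h3, cj_bot]
  · rwa [← e, ← cj_centralizer, cj_le_cj_iff] at h6

theorem NQ.asym [Finite G] {V : Subgroup G} (h : NQ p V) (hV : IsElementaryAbelian p V) :
    ¬ IsSymmetricIn V := by
  rintro ⟨g, h1, h2⟩
  have a1 := H24.EA.le_centralizer hV
  have a2 := H24.EA.le_centralizer (ea_cj hV g)
  have h3 := h _ (isPGroup_cj (H24.EA.isPGroup hV) g)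
    (le_normalizer_of_commutator_le_left (h2.trans inf_le_left))
    (commutator_eq_bot_of_le_centralizer ((h2.trans inf_le_right).trans a2))
    fun e => h1 (commutator_eq_bot_of_le_centralizer (le_centralizer_comm.1 e))
  have h4 := h.cj g _ (H24.EA.isPGroup hV)
    (le_normalizer_of_commutator_le_right (h2.trans inf_le_right))
    (commutator_eq_bot_of_le_centralizer (by
      rw [commutator_comm]; exact (h2.trans inf_le_left).trans a1))
    fun e => h1 (commutator_eq_bot_of_le_centralizer e)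
  nlinarith

theorem NQ.not_le [Finite G] {V B : Subgroup G} (h : NQ p V) (h1 : IsPGroup p B) (h2 : B ≤ 𝐍(V))
    (h3 : ⁅⁅V, B⁆, B⁆ = ⊥) (h4 : ¬ B ≤ 𝐂(V)) : ¬ ix V B ≤ ix B V := fun e => by
  have := h B h1 h2 h3 h4
  have := ix_pos B V
  nlinarith

/-- The Thompson subgroup centralizes `V`. -/
theorem NQ.J_le [Finite G] [Fact p.Prime] {T V : Subgroup G} (h : NQ p V) (hT : IsPGroup p T)
    (hV : IsElementaryAbelian p V) (h1 : V ≤ T) (h2 : T ≤ 𝐍(V)) :
    thompsonSubgroupOf p T ≤ 𝐂(V) := by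
  refine H24.thompsonSubgroupOf_le_iff.2 fun A hA => ?_
  by_contra hc
  obtain ⟨b1, b2, b3⟩ := H24.thompson_replacement hA h1 hV (hA.1.trans h2)
  exact h.not_le (hT.to_le b1.1) (b1.1.trans h2) b2
    (fun e => b3 (fun e' => hc (H24.le_centralizer_of_commutator_eq_bot' e'))
      (H24.commutator_eq_bot_of_le_centralizer' e)) (ix_le_of_maxEA b1 h1 hV)

/-- Filtration along the conjugates of `V`. -/
theorem NQ.filt [Finite G] {V Q : Subgroup G} (h : NQ p V) (hQ : IsPGroup p Q)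
    (hn : ∀ g : G, Q ≤ 𝐍(V ^ᶜ g)) (B : Subgroup G) : B ≤ Q → ⁅⁅ncl V ⊤, B⁆, B⁆ = ⊥ →
    ¬ B ≤ 𝐂(ncl V ⊤) → ix B (ncl V ⊤) ^ 2 < ix (ncl V ⊤) B := by
  induction B using (wellFounded_lt (α := Subgroup G)).induction with
  | _ B ih =>
  intro h1 h2 h3
  obtain ⟨g, hg⟩ : ∃ g : G, ¬ B ≤ 𝐂(V ^ᶜ g) := by
    by_contra hc
    push Not at hc
    exact h3 (le_centralizer_comm.1 (ncl_le_iff.2 fun g _ => le_centralizer_comm.1 (hc g)))
  have hVU : V ^ᶜ g ≤ ncl V ⊤ := cj_le_ncl V (mem_top g)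
  have h4 := h.cj g B (hQ.to_le h1) (h1.trans (hn g))
    (le_bot_iff.1 ((commutator_mono (commutator_mono hVU le_rfl) le_rfl).trans h2.le)) hg
  have hlt : 𝐂(V ^ᶜ g) ⊓ B < B := lt_of_le_of_ne inf_le_right fun e => hg (e.ge.trans inf_le_left)
  have h5 : ix (𝐂(V ^ᶜ g) ⊓ B) (ncl V ⊤) ^ 2 ≤ ix (ncl V ⊤) (𝐂(V ^ᶜ g) ⊓ B) := by
    by_cases hc : 𝐂(V ^ᶜ g) ⊓ B ≤ 𝐂(ncl V ⊤)
    · rw [ix_eq_one.2 hc]; exact ix_pos _ _
    · exact (ih _ hlt (inf_le_right.trans h1) (le_bot_iff.1 ((commutator_mono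
        (commutator_mono le_rfl inf_le_right) inf_le_right).trans h2.le)) hc).le
  have e1 : ix B (ncl V ⊤) = ix (𝐂(V ^ᶜ g) ⊓ B) (ncl V ⊤) * ix B (V ^ᶜ g) :=
    ri_mul B (inf_le_right.trans (centralizer_anti hVU))
  have e2 : ix (ncl V ⊤) B = ix (𝐂(𝐂(V ^ᶜ g) ⊓ B) ⊓ ncl V ⊤) B * ix (ncl V ⊤) (𝐂(V ^ᶜ g) ⊓ B) :=
    ri_mul _ (inf_le_right.trans (centralizer_anti inf_le_right))
  have e3 : ix (V ^ᶜ g) B ≤ ix (𝐂(𝐂(V ^ᶜ g) ⊓ B) ⊓ ncl V ⊤) B :=
    ix_mono_left B (le_inf (le_centralizer_comm.1 inf_le_left) hVU)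
  rw [e1, e2, mul_pow, mul_comm]
  exact Nat.mul_lt_mul_of_lt_of_le (h4.trans_le e3) h5 (ix_pos _ _)

theorem card_hom_le (E : Type*) [Group E] [Finite E] : Nat.card (E →* ℚ) ≤ Nat.card E := by
  haveI := Fintype.ofFinite E
  have h := linearIndependent_monoidHom E ℚ
  haveI : Finite (E →* ℚ) := h.finite
  haveI := Fintype.ofFinite (E →* ℚ)
  have := h.fintype_card_le_finrank
  rwa [Module.finrank_fintype_fun_eq_card, ← Nat.card_eq_fintype_card,
    ← Nat.card_eq_fintype_card] at this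

/-- Pairing `V × X → D₂ / D₃` into a group of order two. -/
theorem pairing [Finite G] {V X D₂ D₃ R : Subgroup G} (hV : V ≤ 𝐂(V)) (hX : X ≤ 𝐍(V))
    (h1 : ⁅V, X⁆ ≤ D₂) (h2 : D₂ ≤ 𝐂(X))
    (h3 : ∀ a ∈ D₂, ∀ b ∈ D₂, a ∉ D₃ → b ∉ D₃ → a * b ∈ D₃)
    (h4 : ∀ v ∈ V, (∀ x ∈ X, ⁅v, x⁆ ∈ D₃) → v ∈ R) : R.relIndex V ≤ ix X V := by
  classical
  have hab : IsMulCommutative V := ⟨⟨fun a b => Subtype.ext (hV b.2 a a.2)⟩⟩
  haveI hN : ((𝐂(V)).subgroupOf X).Normal :=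
    normal_subgroupOf_of_le_normalizer (le_normalizer_centralizer hX)
  have hm : ∀ (v : V) (x : X), ⁅(v : G), (x : G)⁆ ∈ D₂ := fun v x =>
    h1 (commutator_mem_commutator v.2 x.2)
  have key : ∀ a ∈ D₂, ∀ b ∈ D₂, (if a * b ∈ D₃ then (1 : ℚ) else -1) =
      (if a ∈ D₃ then (1 : ℚ) else -1) * (if b ∈ D₃ then (1 : ℚ) else -1) := by
    intro a ha b hb
    by_cases c1 : a ∈ D₃ <;> by_cases c2 : b ∈ D₃
    · simp [c1, c2, mul_mem c1 c2]
    · simp [c1, c2, D₃.mul_mem_cancel_left c1]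
    · simp [c1, c2, D₃.mul_mem_cancel_right c2]
    · simp [c1, c2, h3 a ha b hb c1 c2]
  let χ : V → (X →* ℚ) := fun v =>
    { toFun := fun x => if ⁅(v : G), (x : G)⁆ ∈ D₃ then 1 else -1
      map_one' := by simp
      map_mul' := fun x y => by
        have e : ⁅(v : G), ((x * y : X) : G)⁆ = ⁅(v : G), (x : G)⁆ * ⁅(v : G), (y : G)⁆ := by
          have := h2 (hm v y) x x.2
          rw [coe_mul]
          calc ⁅(v : G), (x : G) * y⁆ = ⁅(v : G), (x : G)⁆ * (x * ⁅(v : G), (y : G)⁆) * (x : G)⁻¹ := by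
                simp only [commutatorElement_def]; group
            _ = _ := by rw [this]; group
        rw [e, key _ (hm v x) _ (hm v y)] }
  have hk : ∀ v, (𝐂(V)).subgroupOf X ≤ (χ v).ker := fun v x hx => by
    have : ⁅(v : G), (x : G)⁆ = 1 := commutatorElement_eq_one_iff_mul_comm.2 (hx v v.2)
    simp [χ, this, MonoidHom.mem_ker]
  haveI : Finite (X ⧸ (𝐂(V)).subgroupOf X →* ℚ) := (linearIndependent_monoidHom _ ℚ).finite
  refine (ri_le_card (fun v => QuotientGroup.lift _ (χ v) (hk v)) fun v w e => ?_).trans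
    (card_hom_le _)
  refine h4 _ (v⁻¹ * w).2 fun x hx => ?_
  have e1 : χ v ⟨x, hx⟩ = χ w ⟨x, hx⟩ := by
    simpa only [QuotientGroup.lift_mk] using
      DFunLike.congr_fun e (QuotientGroup.mk (⟨x, hx⟩ : X))
  have e2 := map_mul (H24.commHom hab (hX hx)) v (v⁻¹ * w)
  rw [mul_inv_cancel_left, H24.commHom_apply, H24.commHom_apply, H24.commHom_apply] at e2
  have e3 := key _ (hm v ⟨x, hx⟩) _ (hm (v⁻¹ * w) ⟨x, hx⟩)
  rw [← e2] at e3
  change χ w ⟨x, hx⟩ = χ v ⟨x, hx⟩ * (if ⁅(v : G)⁻¹ * w, x⁆ ∈ D₃ then 1 else -1) at e3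
  by_contra hc
  rw [if_neg hc, e1] at e3
  by_cases c1 : ⁅(w : G), x⁆ ∈ D₃ <;> simp [χ, c1] at e3 <;> norm_num at e3

end H57.QR
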