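import Mathlib
import Cfsg.Agent.Lib.QRC.Ix

/-! An asymmetric elementary abelian subgroup outside `O_p` has a cubic `2F`-offender. -/

set_option autoImplicit false
set_option linter.unusedSectionVars false
set_option linter.style.haveILetI false

namespace H57.QR

open Subgroup H69 Cfsg
open scoped commutatorElement Pointwise

variable {G : Type*} [Group G] {p : ℕ}

theorem norm_rc {L V W : Subgroup G} (h1 : L ≤ 𝐍(V)) (h2 : L ≤ 𝐍(W)) :
    L ≤ 𝐍(H2.relCentralizer V W) := le_normalizer_of_cj_le fun g hg => by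
  obtain ⟨a, b⟩ := H2.le_relCentralizer_iff.1 (le_refl (H2.relCentralizer V W))
  refine H2.le_relCentralizer_iff.2 ⟨cj_le_of_mem_normalizer a (le_normalizer_normalizer h2 hg), ?_⟩
  have := cj_le_of_mem_normalizer b (h2 hg)
  rwa [cj_commutator, cj_eq_of_mem_normalizer (h1 hg)] at this

variable [Finite G] [Fact p.Prime]

/-- The critical pair argument. -/
theorem wc_of {T M N R Y : Subgroup G} (hT : IsSylowIn p T ⊤)
    (hmax : ∀ K, T ≤ K → K ≠ ⊤ → K ≤ M) (hMN : M ≤ 𝐍(N)) (hTN : T ⊓ N = R) (hTR : T ≤ 𝐍(R))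
    (hYR : Y ≤ R) (hNY : 𝐍(R) ≤ 𝐍(Y)) (hC : T ⊓ 𝐂(Y) ≤ R) (ha : ¬ IsSymmetricIn Y)
    (hYO : ¬ Y ≤ pCoreOf p ⊤) : WC p R := by
  have hRp : IsPGroup p R := hT.isP.to_le (hTN.ge.trans inf_le_left)
  have sN : IsSylowIn p T 𝐍(R) := hT.mono hTR le_top
  have inM : ∀ Z K, Y ≤ Z → Z ≤ R → T ≤ K → K ≤ 𝐍(Z) → K ≤ M := fun Z K h1 h2 h3 h4 =>
    hmax K h3 fun e => hYO (h1.trans (H70.le_pCoreOf (hRp.to_le h2) le_top (e ▸ h4)))
  have back : ∀ X n, n ∈ 𝐍(R) → X ^ᶜ n ≤ R → X ≤ R := fun X n hn h => by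
    rwa [← cj_eq_of_mem_normalizer hn, cj_le_cj_iff] at h
  have cjle : ∀ g, Y ^ᶜ g ≤ 𝐍(R) → Y ≤ 𝐍(R) ^ᶜ g → Y ^ᶜ g ≤ R := fun g h1 h2 => by
    obtain ⟨n, hn, h3⟩ := sN.exists_cj_le (isPGroup_cj (hRp.to_le hYR) g) h1
    refine back _ n hn ((le_inf h3 (cj_le_of_mem_normalizer (le_centralizer_comm.1
      (commute_of_asym' ha (h2.trans ?_) (h1.trans hNY)))
      (normalizer_le_normalizer_centralizer _ (hNY hn)))).trans hC)
    rw [← cj_normalizer]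
    exact cj_mono g hNY
  refine wc_of_forall_normalizes hRp fun x hx2 hx1 => ?_
  rw [← cj_normalizer] at hx2
  let A : Set G := {x | R ^ᶜ x ≤ 𝐍(R) ∧ R ≤ 𝐍(R) ^ᶜ x}
  have k1 : ∀ (n : ℕ) (g : G), g ∈ A ^ n → Y ^ᶜ g ≤ R ∧ Y ≤ R ^ᶜ g := by
    intro n
    induction n with
    | zero =>
      intro g hg
      rw [pow_zero, Set.mem_one] at hg
      rw [hg, cj_one, cj_one]
      exact ⟨hYR, hYR⟩
    | succ n ih =>
      intro g hg
      have h1 : Y ^ᶜ g ≤ 𝐍(R) := by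
        rw [pow_succ'] at hg
        obtain ⟨a, ha, b, hb, rfl⟩ := hg
        rw [← cj_cj]
        exact (cj_mono a (ih b hb).1).trans ha.1
      have h2 : Y ≤ 𝐍(R) ^ᶜ g := by
        rw [pow_succ] at hg
        obtain ⟨a, ha, b, hb, rfl⟩ := hg
        rw [← cj_cj]
        exact (ih a ha).2.trans (cj_mono a hb.2)
      refine ⟨cjle g h1 h2, ?_⟩
      rw [le_cj_iff]
      exact cjle _ (le_cj_iff.1 h2) (cj_le_iff.1 h1)
  have k2 : ∀ g ∈ closure A, ∃ n : ℕ, g ∈ A ^ n := by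
    intro g hg
    induction hg using closure_induction_left with
    | one => exact ⟨0, by rw [pow_zero]; exact Set.mem_one.2 rfl⟩
    | mul_left a ha b _ ih =>
      obtain ⟨n, hn⟩ := ih
      exact ⟨n + 1, by rw [pow_succ']; exact Set.mul_mem_mul ha hn⟩
    | inv_mul_cancel a ha b _ ih =>
      obtain ⟨n, hn⟩ := ih
      refine ⟨n + 1, by
        rw [pow_succ']
        exact Set.mul_mem_mul ⟨le_cj_iff.1 ha.2, cj_le_iff.1 ha.1⟩ hn⟩
  have k3 : ncl Y (closure A) ≤ R := ncl_le_iff.2 fun g hg => by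
    obtain ⟨n, hn⟩ := k2 g hg
    exact (k1 n g hn).1
  have k4 : T ≤ closure A := fun t ht => subset_closure
    ⟨cj_le_of_mem le_normalizer (hTR ht), by rw [cj_eq_of_mem (hTR ht)]; exact le_normalizer⟩
  have k5 : x ∈ M := inM _ _ (le_ncl _ _) k3 k4 (le_normalizer_ncl _ _)
    (subset_closure (show x ∈ A from ⟨hx1, hx2⟩))
  obtain ⟨n, hn, h3⟩ := sN.exists_cj_le (isPGroup_cj hRp x) hx1
  refine cj_eq_of_cj_le (back _ n hn ((le_inf h3 ?_).trans hTN.le))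
  exact cj_le_of_mem_normalizer (cj_le_of_mem_normalizer (hTN.ge.trans inf_le_right) (hMN k5))
    (hMN (inM R _ hYR le_rfl hTR le_rfl hn))

/-- The asymmetric `L`-lemma. -/
theorem exists_pair {Y O H : Subgroup G} (hf : FH p Y O H) (hwc : WC p O) (hcH : H70.CharP p H)
    (hNO : 𝐍(O) ≤ 𝐍(Y)) (hOY : O ≤ 𝐂(Y)) (hYea : IsElementaryAbelian p Y)
    (hasym : ¬ IsSymmetricIn Y) :
    ∃ L h, h ∈ L ∧ Y ⊔ Y ^ᶜ h = L ∧ H70.CharP p L ∧ YM Y (L ⊓ 𝐍(Y)) L := by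
  obtain ⟨L, ⟨hLH, hYL, hYO⟩, hm⟩ := (wellFounded_lt (α := Subgroup G)).has_min
    {L | L ≤ H ∧ Y ≤ L ∧ ¬ Y ≤ pCoreOf p L} ⟨H, le_rfl, hf.YH, hf.not_le⟩
  have hmin : ∀ L', L' ≤ L → Y ≤ L' → ¬ Y ≤ pCoreOf p L' → L' = L := fun L' h1 h2 h3 =>
    h1.eq_of_not_lt (hm L' ⟨h1.trans hLH, h2, h3⟩)
  have hYp := hf.isPY
  have hYY := H24.EA.le_centralizer hYea
  set A := pCoreOf p H with hA
  have hAp : IsPGroup p A := H70.isPGroup_pCoreOf p H
  have hHA : H ≤ 𝐍(A) := H70.le_normalizer_pCoreOf p H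
  have hAY : A ≤ 𝐍(Y) := (hwc.pCoreOf_le_normalizer (le_normalizer_of_le hf.OH)).trans hNO
  have hres : ∀ X, X ≤ H → 𝐑(p, X) ≤ 𝐂(A) → IsPGroup p X := fun X h1 h2 =>
    isPGroup_of_res_le_centralizer hAp ((inf_le_inf_right _ h1).trans hcH) h2
  have hpg : ∀ (P : Subgroup G) (g : G), Y ≤ pCoreOf p P → Y ^ᶜ g ≤ P →
      IsPGroup p (Y ⊔ Y ^ᶜ g : Subgroup G) := fun P g h1 h2 =>
    (isPGroup_sup_of_le_normalizer_left (H70.isPGroup_pCoreOf p P) (isPGroup_cj hYp g)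
      (h2.trans (H70.le_normalizer_pCoreOf p P))).to_le (sup_le_sup_right h1 _)
  have hdich : ∀ l ∈ L, Y ⊔ Y ^ᶜ l ≠ L → IsPGroup p (Y ⊔ Y ^ᶜ l : Subgroup G) := by
    intro l hl hne
    refine hpg (Y ⊔ Y ^ᶜ l) l ?_ le_sup_right
    by_contra hc
    exact hne (hmin _ (sup_le hYL (cj_le_of_mem hYL hl)) le_sup_left hc)
  obtain ⟨h₀, hh₀, hgen⟩ : ∃ h₀ ∈ L, Y ⊔ Y ^ᶜ h₀ = L := by
    by_contra hc
    exact hYO (le_pCoreOf_of_forall_sup_cj hYL fun g hg => hdich g hg fun e => hc ⟨g, hg, e⟩)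
  have q : QP A Y L h₀ := ⟨hLH.trans hHA, hAY, hYY, hh₀, hgen⟩
  have hLp : ¬ IsPGroup p L := fun hc => hYO (by rw [H70.pCoreOf_eq_self hc]; exact hYL)
  have hR : ¬ 𝐑(p, L) ≤ 𝐂(A) := fun hc => hLp (hres L hLH hc)
  have claim1 : L ⊓ 𝐍(A ⊓ Y) ≤ 𝐍(O) := by
    intro l hl
    have h1 : IsPGroup p (⁅O, L ⊓ 𝐍(A ⊓ Y)⁆ : Subgroup G) :=
      hres _ (commutator_le_of_le hf.OH (inf_le_left.trans hLH))
        (q.res_commutator_le hAp (hf.OH.trans hHA) hOY)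
    refine cj_eq_self_iff.1 (hwc.eq _ l (isPGroup_sup_of_le_normalizer_right hf.isP h1
      (le_normalizer_commutator_left _ _)) le_sup_left ?_)
    rw [← ncl_eq_sup_commutator]
    exact cj_le_ncl O hl
  have claim2 : ∀ l ∈ L, Y ⊔ Y ^ᶜ l ≠ L → l ∈ 𝐍(O) := by
    intro l hl hne
    refine claim1 ⟨hl, ?_⟩
    obtain ⟨w, hw, hw'⟩ := q.exists_mem_inf hAp hR hl (hdich l hl hne)
    have h1 : O ≤ H ⊓ 𝐂(zpowers w) :=
      le_inf hf.OH (hOY.trans (centralizer_anti (zpowers_le.2 hw.1.2)))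
    have h2 : O ^ᶜ l ≤ H ⊓ 𝐂(zpowers w) := by
      refine le_inf (cj_le_of_mem hf.OH (hLH hl)) ((cj_mono l hOY).trans ?_)
      rw [cj_centralizer]
      exact centralizer_anti (zpowers_le.2 hw.2)
    have h3 : H ⊓ 𝐂(zpowers w) < H := lt_of_le_of_ne inf_le_left fun e => hw' (by
      rw [← conj_eq_of_mem_centralizer (e.ge (hLH hh₀)).2 (mem_zpowers w)]
      exact cj_mem h₀ hw.1.2)
    have h4 := ea_ncl_of_asym hasym hYea (hf.min _ h1 h3)
      ((hwc.pCoreOf_le_normalizer (le_normalizer_of_le h1)).trans hNO)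
    obtain ⟨k, hk, hk2⟩ := hwc.exists_cj_eq h1 h2
    have h5 : Y ^ᶜ l = Y ^ᶜ k := by
      rw [cj_eq_iff, cj_cj] at hk2 ⊢
      exact (cj_eq_of_mem_normalizer (hNO (cj_eq_self_iff.1 hk2.symm))).symm
    have h6 : Y ^ᶜ l ≤ 𝐂(Y) := by
      rw [h5]
      exact ((cj_le_ncl Y (H70.le_normalizer_pCoreOf p _ hk)).trans
        (H24.EA.le_centralizer h4)).trans (centralizer_anti (le_ncl _ _))
    refine mem_normalizer_of_cj_le ?_
    rw [q.cj_B hl]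
    exact le_inf inf_le_left ((le_inf (q.cj_B_le hl) (inf_le_right.trans h6)).trans
      q.W_inf_centralizer)
  have key : ∀ l ∈ L, l ∉ 𝐍(Y) → Y ⊔ Y ^ᶜ l = L := fun l hl hn => by
    by_contra hc
    exact hn (hNO (claim2 l hl hc))
  have hlt : L ⊓ 𝐍(Y) < L := lt_of_le_of_ne inf_le_left fun e =>
    hYO (H70.le_pCoreOf hYp hYL (e.ge.trans inf_le_right))
  have huniq : ∀ X, Y ≤ X → X < L → X ≤ L ⊓ 𝐍(Y) := fun X h1 h2 x hx => ⟨h2.le hx, by
    by_contra hc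
    exact h2.not_ge ((key x (h2.le hx) hc).ge.trans (sup_le h1 (cj_le_of_mem h1 hx)))⟩
  exact ⟨L, h₀, hh₀, hgen, hcH.of_le_normalizer hLH q.A_le_normalizer,
    le_inf hYL (le_normalizer_of_le le_rfl), hlt, huniq,
    le_antisymm (ncl_le_self hYL) (hgen.ge.trans (sup_le (le_ncl _ _) (cj_le_ncl _ hh₀)))⟩

/-- The cubic offender `O_p(L) ∩ Y^h`. -/
theorem cubic_of_pair {Y L : Subgroup G} {h : G} (hh : h ∈ L) (hgen : Y ⊔ Y ^ᶜ h = L)
    (hc : H70.CharP p L) (hym : YM Y (L ⊓ 𝐍(Y)) L) (hY : IsElementaryAbelian p Y) :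
    ∃ A, IsElementaryAbelian p A ∧ A ≤ 𝐍(Y) ∧ ¬ A ≤ 𝐂(Y) ∧ ⁅⁅⁅Y, A⁆, A⁆, A⁆ = ⊥ ∧
      ix Y A ≤ ix A Y ^ 2 := by
  have hYp := H24.EA.isPGroup hY
  have hYY := H24.EA.le_centralizer hY
  set P := pCoreOf p L with hP
  have hPp : IsPGroup p P := H70.isPGroup_pCoreOf p L
  have hPL : P ≤ L := H70.pCoreOf_le p L
  have q : QP P Y L h := ⟨H70.le_normalizer_pCoreOf p L, (hym.pCoreOf_le hYp).trans inf_le_right,
    hYY, hh, hgen⟩
  set Z := Y ⊓ Y ^ᶜ h with hZ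
  have hZL : Z ≤ 𝐂(L) := q.inf_le_centralizer
  have hLZ : L ≤ 𝐍(Z) := le_normalizer_of_le_of_centralizer hZL
  have hZP : Z ≤ P := H70.le_pCoreOf (hYp.to_le inf_le_left) (inf_le_left.trans q.YL) hLZ
  have hBB : ⁅P ⊓ Y, P ⊓ Y ^ᶜ h⁆ ≤ Z := le_inf
    ((commutator_mono inf_le_right inf_le_left).trans (commutator_le_left_of_le_normalizer q.AY))
    ((commutator_mono inf_le_left inf_le_right).trans
      ((q.commutator_cj_le hh).trans inf_le_right))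
  have hYB : ⁅Y, P ⊓ Y ^ᶜ h⁆ ≤ P ⊓ Y := by
    rw [commutator_comm]
    exact (commutator_mono inf_le_left le_rfl).trans q.commutator_Y_le
  set W := (P ⊓ Y) ⊔ (P ⊓ Y ^ᶜ h) with hW
  have pN : ∀ N, N ≤ L → ⁅W, N⁆ ≤ Z → IsPGroup p N := fun N h1 h2 =>
    isPGroup_of_res_le_centralizer hPp ((inf_le_inf_right _ h1).trans hc)
      (res_le_centralizer_of_chain (fun i => if i = 0 then P else if i = 1 then W else Z) 2 hPp
        (h1.trans q.LA) (fun i hi => by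
          obtain rfl | rfl : i = 0 ∨ i = 1 := by omega
          · exact (commutator_mono le_rfl h1).trans q.commutator_le
          · exact h2) (h1.trans (le_centralizer_comm.1 hZL)))
  have hCA : P ⊓ Y ^ᶜ h ⊓ 𝐂(Y) ≤ Y := (inf_le_inf_right _ le_sup_right).trans q.W_inf_centralizer
  obtain ⟨b, hb, hbY⟩ : ∃ b ∈ P ⊓ Y ^ᶜ h, b ∉ Y := by
    by_contra hcon
    push Not at hcon
    have h1 : P ⊓ Y ^ᶜ h ≤ P ⊓ Y := le_inf inf_le_left hcon
    have h2 : P ⊓ Y ^ᶜ h = P ⊓ Y := eq_of_le_of_card_ge h1 (by rw [← q.cj_B hh, card_cj])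
    refine hym.not_le_pCoreOf hYp (q.YL.trans (H70.pCoreOf_eq_self (pN L le_rfl ?_)).ge)
    refine (commutator_le_left_of_le_normalizer q.le_normalizer_W).trans
      (sup_le (le_inf inf_le_right (h2.ge.trans inf_le_right)) (le_inf hcon inf_le_right))
  have hTI : ∀ y ∈ Y, y ∈ 𝐍(Y ^ᶜ h) → y ∈ P := fun y hy hn => by
    have hWZ : W ≤ 𝐍(Z) := q.W_le'.trans hLZ
    have h1 := H2.le_relCentralizer_iff.1
      (inf_le_right : L ⊓ H2.relCentralizer W Z ≤ H2.relCentralizer W Z)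
    refine H70.le_pCoreOf (pN _ inf_le_left (by rw [commutator_comm]; exact h1.2)) inf_le_left
      (le_normalizer_inf le_normalizer (norm_rc q.le_normalizer_W hLZ)) ⟨q.YL hy, ?_⟩
    have hz : zpowers y ≤ Y := zpowers_le.2 hy
    refine (H2.le_relCentralizer_iff.2 ⟨(hz.trans q.YL).trans hLZ, ?_⟩) (mem_zpowers y)
    refine commutator_sup_le_right (le_sup_left.trans hWZ) (le_sup_right.trans hWZ) ?_ ?_
    · rw [commutator_eq_bot_of_le_centralizer ((hz.trans hYY).trans (centralizer_anti inf_le_right))]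
      exact bot_le
    · exact le_inf (((commutator_mono hz le_rfl).trans hYB).trans inf_le_right)
        ((commutator_mono (zpowers_le.2 hn) inf_le_right).trans
          (commutator_le_right_of_le_normalizer le_rfl))
  have hab : IsMulCommutative Y := hY.1
  have hker : ∀ y ∈ Y, ⁅y, b⁆ ∈ Z → y ∈ P ⊓ Y := fun y hy h1 => by
    refine ⟨hTI y hy ?_, hy⟩
    by_contra hn
    have h2 := (hym.cj_of_mem hh).sup_cj (q.YL hy) (by
      rw [cj_inf, cj_normalizer]; exact fun e => hn e.2)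
    have hzb : zpowers b ≤ 𝐍(Z) := (zpowers_le.2 (hPL hb.1)).trans hLZ
    have h3 : Y ^ᶜ h ≤ H2.relCentralizer (zpowers b) Z := H2.le_relCentralizer_iff.2
      ⟨(q.cjL hh).trans hLZ, by
        rw [commutator_eq_bot_of_le_centralizer ((q.ab' h).trans
          (centralizer_anti (zpowers_le.2 hb.2)))]; exact bot_le⟩
    have h4 : y ∈ H2.relCentralizer (zpowers b) Z := (H2.le_relCentralizer_iff.2
      ⟨(zpowers_le.2 (q.YL hy)).trans hLZ, H24.commutator_zpowers_zpowers_le (hLZ (q.YL hy))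
        (hLZ (hPL hb.1)) h1⟩) (mem_zpowers y)
    have h5 : Y ≤ H2.relCentralizer (zpowers b) Z :=
      q.YL.trans (h2.ge.trans (sup_le h3 (cj_le_of_mem h3 h4)))
    refine hbY (q.mem_of_commutator (mem_sup_right hb) fun v hv => ?_)
    rw [← commutatorElement_inv]
    exact inv_mem ((h5 hv).2 b (mem_zpowers b))
  have i1 : (P ⊓ Y).relIndex Y ≤ Z.relIndex (P ⊓ Y) := by
    refine ri_le_card (β := ↥(P ⊓ Y) ⧸ Z.subgroupOf (P ⊓ Y)) (fun y => QuotientGroup.mk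
      ⟨⁅(y : G), b⁆, hYB (commutator_mem_commutator y.2 hb)⟩) fun x y e => ?_
    refine hker _ (x⁻¹ * y).2 ?_
    have e1 := map_mul (H24.commHom hab (q.AY hb.1)) x⁻¹ y
    rw [map_inv, H24.commHom_apply, H24.commHom_apply, H24.commHom_apply] at e1
    have e2 := mem_subgroupOf.1 (QuotientGroup.eq.1 e)
    exact e1.symm ▸ (show ⁅(x : G), b⁆⁻¹ * ⁅(y : G), b⁆ ∈ Z from e2)
  have i2 : Z.relIndex (P ⊓ Y) = ix (P ⊓ Y ^ᶜ h) Y := by
    have e1 : ∀ B : Subgroup G, Z ≤ B → Z.relIndex B * Nat.card Z = Nat.card B := fun B hB => by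
      rw [← relIndex_bot_left, ← relIndex_bot_left, mul_comm]
      exact relIndex_mul_relIndex _ _ _ bot_le hB
    have e2 : ix (P ⊓ Y ^ᶜ h) Y = Z.relIndex (P ⊓ Y ^ᶜ h) := ri_congr (le_antisymm
      (le_inf inf_le_left (le_inf hCA (inf_le_left.trans inf_le_right)))
      (inf_le_inf_left _ (inf_le_left.trans hYY)))
    rw [e2]
    refine Nat.eq_of_mul_eq_mul_right (Nat.card_pos (α := Z)) ?_
    rw [e1 _ (le_inf hZP inf_le_left), e1 _ (le_inf hZP inf_le_right), ← q.cj_B hh, card_cj]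
  refine ⟨P ⊓ Y ^ᶜ h, H24.EA.mono (ea_cj hY h) inf_le_right, inf_le_left.trans q.AY,
    fun e => hbY (hCA ⟨hb, e hb⟩), commutator_eq_bot_of_le_centralizer
      (((commutator_mono hYB le_rfl).trans hBB).trans (hZL.trans
        (centralizer_anti (inf_le_left.trans hPL)))), ?_⟩
  have i3 : ix Y (P ⊓ Y ^ᶜ h) ≤ Z.relIndex Y := ri_le_left (inf_le_right.trans
    (hZL.trans (centralizer_anti (inf_le_left.trans hPL))))
  rw [← relIndex_mul_relIndex Z (P ⊓ Y) Y (le_inf hZP inf_le_left) inf_le_right] at i3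
  rw [← i2, sq]
  exact i3.trans (Nat.mul_le_mul_left _ i1)

theorem tall {T M N R Y : Subgroup G} (hT : IsSylowIn p T ⊤) (hc : H70.CharP p (⊤ : Subgroup G))
    (hmax : ∀ K, T ≤ K → K ≠ ⊤ → K ≤ M) (hMN : M ≤ 𝐍(N)) (hTN : T ⊓ N = R) (hTR : T ≤ 𝐍(R))
    (hYR : Y ≤ R) (hRY : R ≤ 𝐂(Y)) (hNY : 𝐍(R) ≤ 𝐍(Y)) (hC : T ⊓ 𝐂(Y) ≤ R)
    (hY : IsElementaryAbelian p Y) (ha : ¬ IsSymmetricIn Y) (hYO : ¬ Y ≤ pCoreOf p ⊤) :
    ∃ A ≤ T, IsElementaryAbelian p A ∧ ¬ A ≤ 𝐂(Y) ∧ ⁅⁅⁅Y, A⁆, A⁆, A⁆ = ⊥ ∧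
      ix Y A ≤ ix A Y ^ 2 := by
  have hwc := wc_of hT hmax hMN hTN hTR hYR hNY hC ha hYO
  have hQp := H70.isPGroup_pCoreOf p (⊤ : Subgroup G)
  have hQn := H70.le_normalizer_pCoreOf p (⊤ : Subgroup G)
  obtain ⟨H, ⟨h1, h2⟩, hm⟩ := (wellFounded_lt (α := Subgroup G)).has_min
    {H | R ≤ H ∧ ¬ Y ≤ pCoreOf p H} ⟨⊤, le_top, hYO⟩
  have hf : FH p Y R H := ⟨hYR, hwc.isP, le_normalizer_of_le_centralizer hRY, h1, h2,
    fun P a b => by_contra fun c => hm P ⟨a, c⟩ b⟩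
  have hCp : IsPGroup p (⊤ ⊓ 𝐂(R) : Subgroup G) := isPGroup_of_res_le_centralizer hQp
    ((inf_le_inf_right _ le_top).trans hc) (pxq (X := R) _ hQp (le_top.trans hQn) (le_top.trans hQn)
      (by rw [res_eq_bot_of_isPGroup hwc.isP]; exact bot_le)
      (by rw [commutator_eq_bot_of_le_centralizer (le_centralizer_comm.1 inf_le_right)]
          exact bot_le)
      (((inf_le_inf hT.pCoreOf_le (centralizer_anti hYR)).trans hC).trans
        (le_centralizer_comm.1 inf_le_right)))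
  obtain ⟨L, h, a1, a2, a3, a4⟩ := exists_pair hf hwc
    (hc.of_le_of_centralizer (hT.pCoreOf_le.trans hTR) hCp h1 le_top) hNY hRY hY ha
  obtain ⟨A, b1, b2, b3, b4, b5⟩ := cubic_of_pair a1 a2 a3 a4 hY
  obtain ⟨g, hg, b6⟩ := (hT.mono (hTR.trans hNY) le_top).exists_cj_le (H24.EA.isPGroup b1) b2
  have e := cj_eq_of_mem_normalizer hg
  refine ⟨_, b6, ea_cj b1 g, fun h6 => b3 ?_, ?_, ?_⟩
  · rwa [← e, ← cj_centralizer, cj_le_cj_iff] at h6
  · rw [← e, ← cj_commutator, ← cj_commutator, ← cj_commutator, b4, cj_bot]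
  · rwa [← ix_cj Y A g, ← ix_cj A Y g, e] at b5

end H57.QR
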