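import Mathlib
import Cfsg.Agent.Lib.QRC.Tall
import Cfsg.Agent.Lib.Push.MP22
import Cfsg.Agent.Lib.Push.Blk1

/-! A non-normal elementary abelian subgroup of `O₂` without quadratic `2F`-offenders in a
`2`-minimal group. -/

set_option autoImplicit false
set_option linter.unusedSectionVars false
set_option linter.style.haveILetI false

namespace H57.QR

open Subgroup H69 Cfsg H59.MP H68.Push
open scoped commutatorElement Pointwise

variable {G : Type*} [Group G] {p : ℕ}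

theorem exists_hyper [Finite G] {D S : Subgroup G} (hD : IsElementaryAbelian 2 D) (h : S < D) :
    ∃ M, S ≤ M ∧ M < D ∧ ∀ a ∈ D, ∀ b ∈ D, a ∉ M → b ∉ M → a * b ∈ M := by
  obtain ⟨M, ⟨h1, h2⟩, hm⟩ := (wellFounded_gt (α := Subgroup G)).has_min
    {M | S ≤ M ∧ M < D} ⟨S, le_rfl, h⟩
  refine ⟨M, h1, h2, fun a ha b hb a1 b1 => ?_⟩
  have hc := H24.EA.le_centralizer hD
  have ha2 : a * a = 1 := by rw [← pow_two]; exact hD.2 a ha
  have h3 : M ⊔ zpowers a = D := by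
    by_contra e
    exact hm (M ⊔ zpowers a) ⟨h1.trans le_sup_left,
      lt_of_le_of_ne (sup_le h2.le (zpowers_le.2 ha)) e⟩
      (lt_of_le_of_ne le_sup_left fun e' => a1 (e'.ge (mem_sup_right (mem_zpowers a))))
  obtain ⟨m, hm', x, ⟨k, rfl⟩, rfl⟩ := (mem_sup_of_le_normalizer_left
    (le_normalizer_of_le_centralizer ((zpowers_le.2 ha).trans
      (hc.trans (centralizer_anti h2.le))))).1 (h3.ge hb)
  have h4 : a ^ (2 : ℤ) = 1 := by rw [zpow_two, ha2]
  rcases Int.even_or_odd' k with ⟨j, rfl | rfl⟩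
  · exact absurd (by simpa [zpow_mul, h4] using hm') b1
  · have : a * (m * a ^ (2 * j + 1)) = m := by
      rw [zpow_add, zpow_mul, h4, one_zpow, one_mul, zpow_one, ← mul_assoc, ← hc ha m (h2.le hm'),
        mul_assoc, ha2, mul_one]
    exact this.symm ▸ hm'

theorem comap_cent (Y A : Subgroup G) [Y.Normal] :
    (𝐂(A.map (QuotientGroup.mk' Y))).comap (QuotientGroup.mk' Y) = H2.relCentralizer A Y := by
  ext x
  rw [mem_comap, mem_centralizer_iff_commute, H2.mem_relCentralizer, normalizer_eq_top]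
  have key : ∀ a, QuotientGroup.mk' Y a * QuotientGroup.mk' Y x =
      QuotientGroup.mk' Y x * QuotientGroup.mk' Y a ↔ ⁅x, a⁆ ∈ Y := fun a => by
    rw [eq_comm, ← commutatorElement_eq_one_iff_mul_comm, ← map_commutatorElement,
      ← MonoidHom.mem_ker, QuotientGroup.ker_mk']
  exact ⟨fun h => ⟨trivial, fun a ha => (key a).1 (h _ ⟨a, ha, rfl⟩)⟩, by
    rintro h _ ⟨a, ha, rfl⟩; exact (key a).2 (h.2 a ha)⟩

variable [Finite G] [Fact p.Prime] {T M : Subgroup G}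

local notation "𝐊" => 𝐑(p, (⊤ : Subgroup G))
local notation "𝐐" => pCore p G

theorem pm_le (h : PM p T M) {N : Subgroup G} (h1 : ⊤ ≤ 𝐍(N)) (h2 : ¬ 𝐊 ≤ N) : N ≤ M := by
  by_contra h3
  exact h2 (h.sup_eq_top h3 ▸ res_sup_le h.syl.isP (le_top.trans h1))

theorem pm_inf (h : PM p T M) {N : Subgroup G} (h1 : ⊤ ≤ 𝐍(N)) (h2 : ¬ 𝐊 ≤ N) : T ⊓ N ≤ 𝐐 := by
  haveI := normal_iff_top_le_normalizer.2 (h.inf_normal h1 (pm_le h h1 h2))
  exact H1.le_pCore (h.syl.isP.to_le inf_le_left)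

theorem nK : ⊤ ≤ 𝐍(𝐊) := le_normalizer_res ⊤

theorem nQ : ⊤ ≤ 𝐍(𝐐) := by rw [normalizer_eq_top]

/-- No over-offender on a noncentral chief factor. -/
theorem chief0 (h : PM p T M) {A X Y : Subgroup G} (hA : IsElementaryAbelian p A) (hAT : A ≤ T)
    (hX : IsElementaryAbelian p X) (nX : ⊤ ≤ 𝐍(X)) (nY : ⊤ ≤ 𝐍(Y)) (hYX : Y ≤ X)
    (hK : ¬ ⁅X, 𝐊⁆ ≤ Y) (hm : ∀ W, ⊤ ≤ 𝐍(W) → Y ≤ W → W ≤ X → W = Y ∨ W = X) :
    (𝐐).relIndex A ≤ (H2.relCentralizer A Y).relIndex X := by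
  haveI := normal_iff_top_le_normalizer.2 nX
  haveI := normal_iff_top_le_normalizer.2 nY
  have hπ := QuotientGroup.mk'_surjective Y
  haveI : (X.map (QuotientGroup.mk' Y)).Normal := Normal.map inferInstance _ hπ
  have hW := H24.EA.map hX (QuotientGroup.mk' Y)
  obtain ⟨P, W, _, _, _, _, _, _, θ, π, m⟩ := exists_mdl_top (H24.EA.le_centralizer hW)
  have hXp := H24.EA.isPGroup hX
  have hk : (θ.comp (QuotientGroup.mk' Y)).ker = H2.relCentralizer X Y := by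
    rw [← comap_cent]
    exact Subgroup.ext fun x => m.ker_iff
  have n1 := norm_rc nX nY
  have k1 : ¬ 𝐊 ≤ H2.relCentralizer X Y := fun e =>
    hK (by rw [commutator_comm]; exact (H2.le_relCentralizer_iff.1 e).2)
  have hlt : ¬ X ≤ Y := fun e => hK ((commutator_le_left_of_le_normalizer (le_top.trans nX)).trans e)
  have k2 : 𝐐 ≤ H2.relCentralizer X Y := by
    refine H2.le_relCentralizer_iff.2 ⟨le_top.trans nY, ?_⟩
    rw [commutator_comm]
    rcases hm (Y ⊔ ⁅X, 𝐐⁆) (le_normalizer_sup nY (le_normalizer_commutator nX nQ)) le_sup_left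
      (sup_le hYX (commutator_le_left_of_le_normalizer (le_top.trans nX))) with e | e
    · exact le_sup_right.trans e.le
    · exact absurd (le_of_le_sup_commutator hXp H1.isPGroup_pCore (le_top.trans nX) hYX
        (le_top.trans nY) e.ge) hlt
  obtain ⟨h1, h2⟩ := h.map (m.surj.comp hπ : Function.Surjective (θ.comp (QuotientGroup.mk' Y)))
    (hk ▸ pm_le h n1 k1) (hk ▸ k2)
  obtain ⟨y, y1, y2⟩ := m.exists_y (K := T.map (QuotientGroup.mk' Y)) (by
    rw [Subgroup.map_id, MonoidHom.range_eq_top.2 Function.surjective_id]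
    intro e
    refine inf_centralizer_ne_bot (H24.EA.isPGroup hW) (h.syl.isP.map (QuotientGroup.mk' Y))
      (by rw [normalizer_eq_top]; exact le_top)
      (fun e' => hlt (by rwa [Subgroup.map_eq_bot_iff, QuotientGroup.ker_mk'] at e')) ?_
    rcases hm (X ⊓ H2.relCentralizer ⊤ Y) (le_normalizer_inf nX (norm_rc le_normalizer nY))
      (le_inf hYX (H2.le_relCentralizer_iff.2 ⟨le_normalizer, commutator_le_left_of_le_normalizer nY⟩))
      inf_le_left with e1 | e1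
    · refine eq_bot_iff.2 ?_
      rintro _ ⟨⟨x, hx, rfl⟩, hx'⟩
      have := e ⟨⟨x, hx, rfl⟩, hx'⟩
      rw [← map_top_of_surjective _ hπ, ← mem_comap, comap_cent] at this
      exact (QuotientGroup.eq_one_iff x).2 (e1.le ⟨hx, this⟩)
    · exact absurd ((commutator_mono le_rfl le_top).trans
        (H2.le_relCentralizer_iff.1 (e1.ge.trans inf_le_right)).2) hK)
  rw [map_map] at y1
  have h3 := (h1.hyp h2 (m.tors hW.2) y1 y2).noOver (H24.EA.map hA (θ.comp (QuotientGroup.mk' Y)))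
  have h4 := m.card_fixS (A.map (QuotientGroup.mk' Y))
  rw [map_map, Subgroup.map_id] at h4
  rw [h4, m.card_eq, ← ix_mul_card (X.map (QuotientGroup.mk' Y)) (A.map (QuotientGroup.mk' Y)), ← relIndex_ker, hk, ix,
    ← relIndex_comap, comap_cent] at h3
  exact (ri_le_left ((inf_le_inf_right _ hAT).trans (pm_inf h n1 k1))).trans
    (Nat.le_of_mul_le_mul_right h3 Nat.card_pos)

theorem rc_mono (A : Subgroup G) {Y W : Subgroup G} (nW : ⊤ ≤ 𝐍(W)) (h : Y ≤ W) :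
    H2.relCentralizer A Y ≤ H2.relCentralizer A W :=
  H2.le_relCentralizer_iff.2 ⟨le_top.trans nW, (H2.le_relCentralizer_iff.1 le_rfl).2.trans h⟩

/-- No over-offender on a section moved by `O^p`. -/
theorem chief (h : PM p T M) {A : Subgroup G} (hA : IsElementaryAbelian p A) (hAT : A ≤ T)
    (n : ℕ) : ∀ X Y : Subgroup G, Y.relIndex X = n → IsElementaryAbelian p X → ⊤ ≤ 𝐍(X) →
    ⊤ ≤ 𝐍(Y) → Y ≤ X → ¬ ⁅X, 𝐊⁆ ≤ Y → (𝐐).relIndex A ≤ (H2.relCentralizer A Y).relIndex X := by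
  induction n using Nat.strong_induction_on with
  | _ n ih =>
  intro X Y hn hX nX nY hYX hK
  by_cases hm : ∀ W, ⊤ ≤ 𝐍(W) → Y ≤ W → W ≤ X → W = Y ∨ W = X
  · exact chief0 h hA hAT hX nX nY hYX hK hm
  push Not at hm
  obtain ⟨W, nW, h1, h2, h3, h4⟩ := hm
  have e := relIndex_mul_relIndex Y W X h1 h2
  have e1 : Y.relIndex W ≠ 1 := fun e => h3 (le_antisymm (relIndex_eq_one.1 e) h1)
  have e2 : W.relIndex X ≠ 1 := fun e => h4 (le_antisymm h2 (relIndex_eq_one.1 e))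
  have e3 := ri_ne Y W
  have e4 := ri_ne W X
  by_cases c : ⁅W, 𝐊⁆ ≤ Y
  · refine (ih _ ?_ X W rfl hX nX nW h2 fun c' => hK ?_).trans
      (relIndex_le_of_le_left (rc_mono A nW h1) (ri_ne _ _))
    · rw [← hn, ← e]
      exact lt_mul_of_one_lt_left (Nat.pos_of_ne_zero e4) (by omega)
    · rw [← commutator_res_res (H24.EA.isPGroup hX) nX]
      exact (commutator_mono c' le_rfl).trans c
  · refine (ih _ ?_ W Y rfl (H24.EA.mono hX h2) nW nY h1 c).trans
      (relIndex_le_of_le_right h2 (ri_ne _ _))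
    rw [← hn, ← e]
    exact lt_mul_of_one_lt_right (Nat.pos_of_ne_zero e3) (by omega)

theorem rc_bot (A : Subgroup G) : H2.relCentralizer A ⊥ = 𝐂(A) :=
  le_antisymm (le_centralizer_of_commutator_eq_bot
    (le_bot_iff.1 (H2.le_relCentralizer_iff.1 le_rfl).2)) (H2.le_relCentralizer_iff.2
    ⟨by rw [normalizer_eq_top]; exact le_top, (commutator_eq_bot_of_le_centralizer le_rfl).le⟩)

/-- There is only one noncentral chief factor in `⟨V^G⟩`. -/
theorem one_chief (h : PM p T M) {V : Subgroup G} (hU : IsElementaryAbelian p (ncl V ⊤))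
    (hUT : ncl V ⊤ ≤ T) (hTV : T ≤ 𝐍(V)) (hC : T ⊓ 𝐂(ncl V ⊤) ≤ 𝐐) (hq : NQ p V)
    (hJ : ¬ thompsonSubgroupOf p T ≤ 𝐐) {W : Subgroup G} (nW : ⊤ ≤ 𝐍(W)) (hW : W ≤ ncl V ⊤) :
    W ≤ 𝐂(𝐊) ∨ ⁅ncl V ⊤, 𝐊⁆ ≤ W := by
  by_contra hc
  push Not at hc
  obtain ⟨A₀, a1, a2⟩ : ∃ A ∈ H24.maxEA p T, ¬ A ≤ 𝐐 := by
    by_contra e
    push Not at e
    exact hJ (H24.thompsonSubgroupOf_le_iff.2 e)
  have nU := le_normalizer_ncl V ⊤
  obtain ⟨A, b1, b2, b3⟩ : ∃ A ∈ H24.maxEA p T, ⁅⁅ncl V ⊤, A⁆, A⁆ = ⊥ ∧ ¬ A ≤ 𝐂(ncl V ⊤) := by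
    obtain ⟨b1, b2, b3⟩ := H24.thompson_replacement a1 hUT hU (le_top.trans nU)
    exact ⟨_, b1, b2, fun e => b3 (fun e' => a2 ((le_inf a1.1
      (H24.le_centralizer_of_commutator_eq_bot' e')).trans hC))
      (H24.commutator_eq_bot_of_le_centralizer' e)⟩
  have c1 := chief h b1.2.1 b1.1 _ W ⊥ rfl (H24.EA.mono hU hW) nW (by rw [normalizer_eq_top])
    bot_le fun e => hc.1 (le_centralizer_of_commutator_eq_bot (le_bot_iff.1 e))
  have c2 := chief h b1.2.1 b1.1 _ _ W rfl hU nU nW hW hc.2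
  rw [rc_bot] at c1
  have e1 : ix (ncl V ⊤) A = ix (H2.relCentralizer A W ⊓ ncl V ⊤) A *
      (H2.relCentralizer A W).relIndex (ncl V ⊤) :=
    ri_mul _ (inf_le_right.trans (rc_bot A ▸ rc_mono A nW bot_le))
  have e2 : ix W A ≤ ix (H2.relCentralizer A W ⊓ ncl V ⊤) A := ix_mono_left A (le_inf
    (H2.le_relCentralizer_iff.2 ⟨le_normalizer,
      commutator_le_left_of_le_normalizer (le_top.trans nW)⟩) hW)
  have e3 : ix A (ncl V ⊤) = ix (𝐐 ⊓ A) (ncl V ⊤) * (𝐐).relIndex A :=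
    ri_mul A ((inf_le_inf_right _ b1.1).trans hC)
  have e4 := ix_le_of_maxEA b1 hUT hU
  have e5 : (𝐐).relIndex A * (𝐐).relIndex A ≤ ix (ncl V ⊤) A :=
    e1 ▸ Nat.mul_le_mul (c1.trans e2) c2
  have e6 := Nat.pos_of_ne_zero (ri_ne 𝐐 A)
  by_cases c : 𝐐 ⊓ A ≤ 𝐂(ncl V ⊤)
  · rw [ix_eq_one.2 c, one_mul] at e3
    refine b3 ((le_inf (relIndex_eq_one.1 ?_) le_rfl).trans c)
    nlinarith
  · have e7 := (hq.filt H1.isPGroup_pCore (fun g => by
      rw [← cj_normalizer, ← cj_eq_of_mem_normalizer (nQ (mem_top g))]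
      exact cj_mono g ((h.syl.le_of_le_normalizer H1.isPGroup_pCore le_top
        (le_top.trans nQ)).trans hTV)) (𝐐 ⊓ A) inf_le_left (le_bot_iff.1 ((commutator_mono
        (commutator_mono le_rfl inf_le_right) inf_le_right).trans b2.le)) c).trans_le
      (ix_mono_right _ inf_le_right)
    rw [e3] at e4
    nlinarith [Nat.mul_lt_mul_of_lt_of_le e7 e5 (ix_pos _ _), Nat.mul_le_mul e4 e4]

omit [Fact p.Prime] in
theorem ncl_le_sup (h : 𝐊 ⊔ T = ⊤) {V : Subgroup G} (hTV : T ≤ 𝐍(V)) :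
    ncl V ⊤ ≤ V ⊔ ⁅ncl V ⊤, 𝐊⁆ := by
  refine ncl_le_iff.2 fun g _ => ?_
  obtain ⟨k, hk, t, ht, rfl⟩ := (mem_sup_of_le_normalizer_left
    (le_top.trans (le_normalizer_res ⊤))).1 (h.ge (mem_top g))
  rw [← cj_cj, cj_eq_of_mem_normalizer (hTV ht)]
  exact (cj_le_ncl V hk).trans ((ncl_eq_sup_commutator V _).le.trans
    (sup_le_sup_left (commutator_mono (le_ncl V ⊤) le_rfl) V))

/-- A module centralized by `O_p` moves the fixed points of `T`. -/
theorem not_cent (h : PM p T M) (hJ : ¬ thompsonSubgroupOf p T ≤ 𝐐) {U : Subgroup G}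
    (hU : IsElementaryAbelian p U) (hUT : U ≤ T) (nU : ⊤ ≤ 𝐍(U)) (h1 : U ≤ 𝐂(𝐐))
    (h2 : ¬ U ≤ 𝐂(𝐊)) : ¬ ⊤ ≤ 𝐂(omegaOneCenter p T) := by
  intro hZ
  obtain ⟨A, a1, a2⟩ : ∃ A ∈ H24.maxEA p T, ¬ A ≤ 𝐐 := by
    by_contra e
    push Not at e
    exact hJ (H24.thompsonSubgroupOf_le_iff.2 e)
  haveI := normal_iff_top_le_normalizer.2 nU
  obtain ⟨P, W, _, _, _, _, _, _, θ, π, m⟩ := exists_mdl_top (H24.EA.le_centralizer hU)
  have hk : θ.ker = 𝐂(U) := Subgroup.ext fun x => m.ker_iff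
  have n1 := le_normalizer_centralizer nU
  have k1 : ¬ 𝐊 ≤ 𝐂(U) := fun e => h2 (le_centralizer_comm.1 e)
  obtain ⟨h3, h4⟩ := h.map m.surj (hk ▸ pm_le h n1 k1) (hk ▸ le_centralizer_comm.1 h1)
  have h5 := m.offender (K := A) (by
    rw [Subgroup.map_id]; exact H24.isBestOffenderOn_of_mem_maxEA a1 hUT hU)
  refine h3.not_fix_le h4 h5.1 (m.map_ne_bot (by
    rw [Subgroup.map_id]; exact fun e => a2 ((le_inf a1.1 e).trans (pm_inf h n1 k1))))
    (map_mono a1.1) _ W rfl (m.tors hU.2) h5.2 (m.pre_le_pre.1 ?_)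
  have h6 := m.pre_fixS T
  have h7 := m.pre_fixS ⊤
  rw [Subgroup.map_id] at h6 h7
  rw [map_top_of_surjective θ m.surj] at h7
  rw [h6, h7]
  exact le_inf inf_le_left ((H68B.le_oc (H24.EA.mono hU inf_le_left) (inf_le_left.trans hUT)
    inf_le_right).trans (le_centralizer_comm.1 hZ))

theorem short {T M V : Subgroup G} (h : PM 2 T M) (hV : IsElementaryAbelian 2 V)
    (hVQ : V ≤ pCore 2 G) (hTV : T ≤ 𝐍(V)) (hn : ¬ ⊤ ≤ 𝐍(V)) (hq : NQ 2 V)
    (hJ : ¬ thompsonSubgroupOf 2 T ≤ pCore 2 G) : ¬ ⊤ ≤ 𝐂(omegaOneCenter 2 T) := by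
  have hQ : IsPGroup 2 (pCore 2 G) := H1.isPGroup_pCore
  have hQT : pCore 2 G ≤ T := h.syl.le_of_le_normalizer hQ le_top (le_top.trans nQ)
  have hU := ea_ncl_of_asym (hq.asym hV) hV hVQ (hQT.trans hTV)
  rw [top_le_iff.1 nQ] at hU
  have nU := le_normalizer_ncl V ⊤
  have hUQ : ncl V ⊤ ≤ pCore 2 G := ncl_le hVQ nQ
  have hUp := H24.EA.isPGroup hU
  have hK : ¬ 𝐑(2, (⊤ : Subgroup G)) ≤ 𝐂(ncl V ⊤) := fun e => hn (h.syl.res_sup.ge.trans
    (sup_le (le_normalizer_of_le_centralizer (e.trans (centralizer_anti (le_ncl V ⊤)))) hTV))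
  have one := fun W => one_chief h hU (hUQ.trans hQT) hTV
    (pm_inf h (le_normalizer_centralizer nU) hK) hq hJ (W := W)
  have hc : ∀ X, ⁅ncl V ⊤, X⁆ ≤ ncl V ⊤ := fun X =>
    commutator_le_left_of_le_normalizer (le_top.trans nU)
  have h1 : ⁅ncl V ⊤, pCore 2 G⁆ ≤ 𝐂(𝐑(2, (⊤ : Subgroup G))) := by
    refine (one _ (le_normalizer_commutator nU nQ) (hc _)).resolve_right fun e => hn ?_
    rwa [le_antisymm (le_of_le_sup_commutator hUp hQ (le_top.trans nU) (le_ncl V ⊤) (hQT.trans hTV)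
      ((ncl_le_sup h.syl.res_sup hTV).trans (sup_le_sup_left e V))) (le_ncl V ⊤)] at nU
  have h2 : ⁅pCore 2 G, 𝐑(2, (⊤ : Subgroup G))⁆ ≤ 𝐂(ncl V ⊤) := by
    by_contra e
    have n1 : ⊤ ≤ 𝐍(⁅pCore 2 G, 𝐑(2, (⊤ : Subgroup G))⁆) := le_normalizer_commutator nQ nK
    have q1 := commutator_le_left_of_le_normalizer (le_top.trans (nQ (p := 2) (G := G)) :
      𝐑(2, (⊤ : Subgroup G)) ≤ _)
    have q2 := commutator_le_right_of_le_normalizer (le_top.trans (nK (p := 2) (G := G)) :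
      pCore 2 G ≤ _)
    have q3 := commutator_res_res hQ nQ
    generalize ⁅pCore 2 G, 𝐑(2, (⊤ : Subgroup G))⁆ = X at e n1 q1 q2 q3
    have d1 := (commutator_mono le_rfl q1).trans h1
    have d2 := le_normalizer_commutator nU n1
    obtain ⟨D, d3, d4, d5⟩ := exists_hyper (H24.EA.mono hU (hc X))
      (commutator_lt_of_res_le (hUp.to_le (hc X)) d2 (le_centralizer_comm.1 d1) fun e' =>
        e (le_centralizer_comm.1 (le_centralizer_of_commutator_eq_bot e')))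
    have nD : ⊤ ≤ 𝐍(D) :=
      le_normalizer_of_commutator_le_left ((commutator_mono d4.le le_rfl).trans d3)
    rcases one _ (le_normalizer_inf nU (norm_rc n1 nD)) inf_le_left with e1 | e1
    · refine hq.not_le (hQ.to_le q1) (q1.trans (hQT.trans hTV))
        (commutator_eq_bot_of_le_centralizer ((commutator_mono (le_ncl V ⊤) le_rfl).trans
          (d1.trans (centralizer_anti q2))))
        (fun e' => e (le_centralizer_comm.1 (ncl_le_centralizer (le_centralizer_comm.1 e') n1)))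
        (pairing (H24.EA.le_centralizer hV) (q1.trans (hQT.trans hTV))
          (commutator_mono (le_ncl V ⊤) le_rfl) (d1.trans (centralizer_anti q2)) d5
          fun v hv hv' => centralizer_anti q2 (e1 ⟨le_ncl V ⊤ hv, nD (mem_top v), hv'⟩))
    · refine d4.not_ge ?_
      rw [commutator_comm]
      refine (commutator_mono q3.ge le_rfl).trans (three_subgroups (le_top.trans nD)
        (le_top.trans nD) (le_top.trans nD) ?_ ?_)
      · rw [commutator_comm _ (ncl V ⊤)]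
        exact (H2.le_relCentralizer_iff.1 (e1.trans inf_le_right)).2
      · rw [commutator_eq_bot_of_le_centralizer d1]
        exact bot_le
  refine not_cent h hJ (H24.EA.mono hU (hc 𝐑(2, (⊤ : Subgroup G)))) ((hc _).trans (hUQ.trans hQT))
    (le_normalizer_commutator nU nK) (three_subgroups_cent ?_ ?_) fun e =>
      hK (res_le_centralizer_of_res_quadratic hUp nU e)
  · rwa [commutator_comm]
  · rwa [commutator_comm]

end H57.QR
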